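import Cfsg.Agent.H38.InvCyc

/-!
Rank one set-up: the quotient of `C_D(t)` by the centralizer of the inverted elements is cyclic.
-/

set_option autoImplicit false

namespace Cfsg.Agent.H24.RankOneGal

open Cfsg MulAction Cfsg.Agent.H20 Cfsg.Agent.H20.RO Cfsg.Agent.H38.OddTrans

section Abs

variable {Γ E : Type*} [Group Γ] [CommGroup E] {ρ : Γ →* MulAut E} {τ : Γ ≃* Γ} {s : E}

/-- the action as additive endomorphisms -/
def L (ρ : Γ →* MulAut E) : Γ →* AddMonoid.End (Additive E) where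
  toFun x := MonoidHom.toAdditive (ρ x).toMonoidHom
  map_one' := by
    ext e
    simp
    rfl
  map_mul' x y := by
    ext e
    simp
    rfl

theorem L_apply (ρ : Γ →* MulAut E) (x : Γ) (e : Additive E) :
    L ρ x e = Additive.ofMul (ρ x (Additive.toMul e)) := rfl

variable [Finite Γ] [Finite E] (h : TSetup ρ τ s)
  (hKm : ∀ x y, τ x = x⁻¹ → τ y = y⁻¹ → x * y = y * x ∧ τ (x * y) = (x * y)⁻¹)
  (hKn : ∀ d x, τ x = x⁻¹ → τ (d * x * d⁻¹) = (d * x * d⁻¹)⁻¹)

include h in
theorem add_self (f : AddMonoid.End (Additive E)) : f + f = 0 := by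
  ext e
  show f e + f e = 0
  exact congrArg Additive.ofMul (h.two (Additive.toMul (f e)))

include hKm h in
theorem L_ext {a b : AddMonoid.End (Additive E)} (ha : ∀ k, τ k = k⁻¹ → a * L ρ k = L ρ k * a)
    (hb : ∀ k, τ k = k⁻¹ → b * L ρ k = L ρ k * b)
    (hab : a (Additive.ofMul s) = b (Additive.ofMul s)) : a = b := by
  refine DFunLike.ext _ _ fun e => ?_
  by_cases he : e = 0
  · rw [he, map_zero, map_zero]
  · obtain ⟨k, hk, hks⟩ := h.trans (Additive.toMul e) (fun hc => he hc)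
    have e1 : e = L ρ k (Additive.ofMul s) := by
      rw [L_apply]
      show e = Additive.ofMul (ρ k s)
      rw [hks]; rfl
    have h1 := congrArg (fun f : AddMonoid.End (Additive E) => f (Additive.ofMul s)) (ha k hk)
    have h2 := congrArg (fun f : AddMonoid.End (Additive E) => f (Additive.ofMul s)) (hb k hk)
    have h1' : a (L ρ k (Additive.ofMul s)) = L ρ k (a (Additive.ofMul s)) := h1
    have h2' : b (L ρ k (Additive.ofMul s)) = L ρ k (b (Additive.ofMul s)) := h2
    rw [e1, h1', h2', hab]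

/-- the field generated by the inverted elements -/
def FF : Subring (AddMonoid.End (Additive E)) where
  carrier := {a | a = 0 ∨ ∃ k, τ k = k⁻¹ ∧ a = L ρ k}
  mul_mem' := by
    rintro a b (rfl | ⟨k, hk, rfl⟩) hb
    · left; exact zero_mul _
    · rcases hb with rfl | ⟨l, hl, rfl⟩
      · left; exact mul_zero _
      · right
        exact ⟨k * l, (hKm k l hk hl).2, (map_mul _ _ _).symm⟩
  one_mem' := Or.inr ⟨1, by simp, (map_one _).symm⟩
  zero_mem' := Or.inl rfl
  add_mem' := by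
    rintro a b (rfl | ⟨k, hk, rfl⟩) hb
    · rw [zero_add]; exact hb
    · rcases hb with rfl | ⟨l, hl, rfl⟩
      · rw [add_zero]; exact Or.inr ⟨k, hk, rfl⟩
      · have ck : ∀ x, τ x = x⁻¹ → ∀ y, τ y = y⁻¹ → L ρ x * L ρ y = L ρ y * L ρ x := by
          intro x hx y hy
          rw [← map_mul, (hKm x y hx hy).1, map_mul]
        by_cases hz : (L ρ k + L ρ l) (Additive.ofMul s) = 0
        · left
          apply L_ext h hKm (a := L ρ k + L ρ l) (b := 0)
          · intro m hm
            rw [add_mul, mul_add, ck k hk m hm, ck l hl m hm]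
          · intro m hm
            rw [zero_mul, mul_zero]
          · rw [hz]; rfl
        · obtain ⟨m, hm, hms⟩ := h.trans (Additive.toMul ((L ρ k + L ρ l) (Additive.ofMul s))) (fun hc => hz hc)
          right
          refine ⟨m, hm, ?_⟩
          apply L_ext h hKm
          · intro n hn
            rw [add_mul, mul_add, ck k hk n hn, ck l hl n hn]
          · intro n hn
            exact ck m hm n hn
          · rw [L_apply ρ m]
            show _ = Additive.ofMul (ρ m s)
            rw [hms]; rfl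
  neg_mem' := by
    intro a ha
    have h1 : -a = a := neg_eq_of_add_eq_zero_left (add_self h a)
    show -a = 0 ∨ ∃ k, τ k = k⁻¹ ∧ -a = L ρ k
    rw [h1]; exact ha

theorem mem_FF {a : AddMonoid.End (Additive E)} :
    a ∈ FF h hKm ↔ (a = 0 ∨ ∃ k, τ k = k⁻¹ ∧ a = L ρ k) := Iff.rfl

theorem FF_isField : IsField (FF h hKm) where
  exists_pair_ne := by
    refine ⟨0, 1, ?_⟩
    intro hc
    have h1 : (0 : AddMonoid.End (Additive E)) = 1 := congrArg Subtype.val hc
    have h2 := congrArg (fun f : AddMonoid.End (Additive E) => f (Additive.ofMul s)) h1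
    apply h.s1
    exact h2.symm
  mul_comm := by
    rintro ⟨a, ha⟩ ⟨b, hb⟩
    apply Subtype.ext
    show a * b = b * a
    rcases ha with rfl | ⟨k, hk, rfl⟩
    · rw [zero_mul, mul_zero]
    · rcases hb with rfl | ⟨l, hl, rfl⟩
      · rw [zero_mul, mul_zero]
      · rw [← map_mul, (hKm k l hk hl).1, map_mul]
  mul_inv_cancel := by
    rintro ⟨a, ha⟩ ha0
    rcases ha with rfl | ⟨k, hk, rfl⟩
    · exact absurd rfl ha0
    · refine ⟨⟨L ρ k⁻¹, Or.inr ⟨k⁻¹, by rw [map_inv, hk], rfl⟩⟩, ?_⟩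
      apply Subtype.ext
      show L ρ k * L ρ k⁻¹ = 1
      rw [← map_mul, mul_inv_cancel, map_one]

/-- conjugation by `d` -/
def cj (d : Γ) : FF h hKm ≃+* FF h hKm where
  toFun x := ⟨L ρ d * x * L ρ d⁻¹, by
    obtain ⟨x, hx⟩ := x
    rcases hx with rfl | ⟨k, hk, rfl⟩
    · left
      show L ρ d * 0 * L ρ d⁻¹ = 0
      rw [mul_zero, zero_mul]
    · right
      refine ⟨d * k * d⁻¹, hKn d k hk, ?_⟩
      show L ρ d * L ρ k * L ρ d⁻¹ = _
      rw [map_mul, map_mul]⟩
  invFun x := ⟨L ρ d⁻¹ * x * L ρ d, by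
    obtain ⟨x, hx⟩ := x
    rcases hx with rfl | ⟨k, hk, rfl⟩
    · left
      show L ρ d⁻¹ * 0 * L ρ d = 0
      rw [mul_zero, zero_mul]
    · right
      refine ⟨d⁻¹ * k * d, by simpa using hKn d⁻¹ k hk, ?_⟩
      show L ρ d⁻¹ * L ρ k * L ρ d = _
      rw [map_mul, map_mul]⟩
  left_inv x := by
    apply Subtype.ext
    show L ρ d⁻¹ * (L ρ d * x * L ρ d⁻¹) * L ρ d = x
    have e1 : L ρ d⁻¹ * L ρ d = 1 := by rw [← map_mul, inv_mul_cancel, map_one]
    calc L ρ d⁻¹ * (L ρ d * x * L ρ d⁻¹) * L ρ d = (L ρ d⁻¹ * L ρ d) * x * (L ρ d⁻¹ * L ρ d) := by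
          simp only [mul_assoc]
      _ = x := by rw [e1, one_mul, mul_one]
  right_inv x := by
    apply Subtype.ext
    show L ρ d * (L ρ d⁻¹ * x * L ρ d) * L ρ d⁻¹ = x
    have e1 : L ρ d * L ρ d⁻¹ = 1 := by rw [← map_mul, mul_inv_cancel, map_one]
    calc L ρ d * (L ρ d⁻¹ * x * L ρ d) * L ρ d⁻¹ = (L ρ d * L ρ d⁻¹) * x * (L ρ d * L ρ d⁻¹) := by
          simp only [mul_assoc]
      _ = x := by rw [e1, one_mul, mul_one]
  map_mul' x y := by
    apply Subtype.ext
    show L ρ d * (x * y) * L ρ d⁻¹ = (L ρ d * x * L ρ d⁻¹) * (L ρ d * y * L ρ d⁻¹)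
    have e1 : L ρ d⁻¹ * L ρ d = 1 := by rw [← map_mul, inv_mul_cancel, map_one]
    calc L ρ d * (x * y) * L ρ d⁻¹ = L ρ d * x * 1 * y * L ρ d⁻¹ := by simp only [mul_assoc, one_mul]
      _ = L ρ d * x * (L ρ d⁻¹ * L ρ d) * y * L ρ d⁻¹ := by rw [e1]
      _ = _ := by simp only [mul_assoc]
  map_add' x y := by
    apply Subtype.ext
    show L ρ d * (x + y) * L ρ d⁻¹ = (L ρ d * x * L ρ d⁻¹) + (L ρ d * y * L ρ d⁻¹)
    rw [mul_add, add_mul]

theorem cj_apply (d : Γ) (x : FF h hKm) :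
    ((cj h hKm hKn d x : FF h hKm) : AddMonoid.End (Additive E)) = L ρ d * x * L ρ d⁻¹ := rfl

include h hKm hKn in
theorem galois : ∃ v, τ v = v ∧ ∀ w, τ w = w → ∃ i : ℤ, ∀ k, τ k = k⁻¹ →
    (w * (v ^ i)⁻¹) * k = k * (w * (v ^ i)⁻¹) := by
  classical
  letI : Field (FF h hKm) := (FF_isField h hKm).toField
  haveI : Finite (AddMonoid.End (Additive E)) :=
    Finite.of_injective (fun f : AddMonoid.End (Additive E) => (f : Additive E → Additive E))
      DFunLike.coe_injective
  haveI : CharP (FF h hKm) 2 := by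
    haveI : CharP (FF h hKm) (ringChar (FF h hKm)) := ringChar.charP _
    have h2 : ((2 : ℕ) : FF h hKm) = 0 := by
      have : (1 : FF h hKm) + 1 = 0 := Subtype.ext (add_self h 1)
      rw [← this]; norm_num
    have h3 := (CharP.cast_eq_zero_iff (FF h hKm) (ringChar (FF h hKm)) 2).1 h2
    have h4 : ringChar (FF h hKm) = 2 := by
      rcases (Nat.dvd_prime Nat.prime_two).1 h3 with h4 | h4
      · exact absurd h4 (CharP.ringChar_ne_one)
      · exact h4
    rw [← h4]; exact ringChar.charP _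
  letI : Algebra (ZMod 2) (FF h hKm) := ZMod.algebra _ 2
  let Vt : Subgroup Γ :=
    { carrier := {x | τ x = x}
      mul_mem' := by
        intro a b ha hb
        show τ (a * b) = a * b
        rw [map_mul]
        rw [show τ a = a from ha, show τ b = b from hb]
      one_mem' := map_one _
      inv_mem' := by
        intro a ha
        show τ a⁻¹ = a⁻¹
        rw [map_inv, show τ a = a from ha] }
  let Φ : Vt →* (FF h hKm ≃ₐ[ZMod 2] FF h hKm) :=
    { toFun := fun d => AlgEquiv.ofRingEquiv (f := cj h hKm hKn d) (by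
        intro r
        have := Subsingleton.elim ((cj h hKm hKn d : FF h hKm →+* FF h hKm).comp (algebraMap (ZMod 2) (FF h hKm)))
          (algebraMap (ZMod 2) (FF h hKm))
        exact congrArg (fun f : ZMod 2 →+* FF h hKm => f r) this)
      map_one' := by
        ext x
        show (((cj h hKm hKn ((1 : Vt) : Γ) x : FF h hKm) : AddMonoid.End (Additive E))) _ = _
        rw [cj_apply]
        simp
        rfl
      map_mul' := by
        intro c d
        ext x
        show (((cj h hKm hKn ((c * d : Vt) : Γ) x : FF h hKm) : AddMonoid.End (Additive E))) _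
          = ((cj h hKm hKn (c : Γ) (cj h hKm hKn (d : Γ) x) : FF h hKm) : AddMonoid.End (Additive E)) _
        rw [cj_apply, cj_apply, cj_apply]
        simp [mul_assoc] }
  have hΦ : ∀ (d : Vt) (x : FF h hKm), ((Φ d x : FF h hKm) : AddMonoid.End (Additive E)) = L ρ d * x * L ρ (d : Γ)⁻¹ :=
    fun d x => rfl
  haveI : IsCyclic (FF h hKm ≃ₐ[ZMod 2] FF h hKm) := inferInstance
  haveI : IsCyclic Φ.range := inferInstance
  obtain ⟨⟨g, v, hv⟩, hg⟩ := IsCyclic.exists_generator (α := Φ.range)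
  refine ⟨v, v.2, ?_⟩
  intro w hw
  obtain ⟨i, hi⟩ := Subgroup.mem_zpowers_iff.1 (hg ⟨Φ ⟨w, hw⟩, ⟨w, hw⟩, rfl⟩)
  have hi' : g ^ i = Φ ⟨w, hw⟩ := congrArg Subtype.val hi
  rw [← hv, ← map_zpow] at hi'
  have h1 : Φ (⟨w, hw⟩ * (v ^ i)⁻¹) = 1 := by
    rw [map_mul, ← hi', map_inv, mul_inv_cancel]
  refine ⟨i, ?_⟩
  intro k hk
  set u : Γ := w * ((v : Γ) ^ i)⁻¹ with hu
  have h2 := congrArg (fun f : FF h hKm ≃ₐ[ZMod 2] FF h hKm =>
    ((f (⟨L ρ k, Or.inr ⟨k, hk, rfl⟩⟩ : FF h hKm) : FF h hKm) : AddMonoid.End (Additive E))) h1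
  have h3 : L ρ u * L ρ k * L ρ u⁻¹ = L ρ k := by
    have h4 := hΦ (⟨w, hw⟩ * (v ^ i)⁻¹) (⟨L ρ k, Or.inr ⟨k, hk, rfl⟩⟩ : FF h hKm)
    simp only [AlgEquiv.one_apply] at h2
    rw [h2] at h4
    exact h4.symm
  have h5 : L ρ (u * k * u⁻¹ * k⁻¹) = 1 := by
    rw [map_mul, map_mul, map_mul, h3, ← map_mul, mul_inv_cancel, map_one]
  have h6 : τ (u * k * u⁻¹ * k⁻¹) = (u * k * u⁻¹ * k⁻¹)⁻¹ :=
    (hKm _ _ (hKn u k hk) (by rw [map_inv, hk])).2
  have h7 : ρ (u * k * u⁻¹ * k⁻¹) s = s :=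
    congrArg (fun f : AddMonoid.End (Additive E) => Additive.toMul (f (Additive.ofMul s))) h5
  have h8 := h.fpf h6 h.s1 h7
  calc u * k = (u * k * u⁻¹ * k⁻¹) * (k * u) := by group
    _ = k * u := by rw [h8, one_mul]

end Abs

variable {G Ω : Type*} [Group G] [MulAction G Ω] {a : Ω} {t : G} {Q : Subgroup G} [Finite G]

theorem quot_cyclic (hS : IsRankOneSetup G Ω a t Q)
    (h2 : ∃ x y : G, x ≠ 1 ∧ y ≠ 1 ∧ x ≠ y ∧ x * x = 1 ∧ y * y = 1 ∧ x * y = y * x)
    (hsol : Group.IsSolvable ↥(DD G a t)) :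
    ∃ v ∈ DD G a t, t * v = v * t ∧ ∀ w ∈ DD G a t, t * w = w * t → ∃ i : ℤ,
      ∀ k ∈ invertedBy (DD G a t) t, (w * (v ^ i)⁻¹) * k = k * (w * (v ^ i)⁻¹) := by
  classical
  obtain ⟨C, hC, hCc, hCn⟩ := inverted_cyclic hS h2 hsol
  obtain ⟨s, r, hs, hs1, hss, hr, h⟩ := struct_exists hS
  letI : CommGroup ↥(EE hS h2) := EEgroup hS h2
  have hDa : ∀ d : ↥(DD G a t), (d : G) • a = a := fun d => (mem_DD.1 d.2).1
  let ρ : ↥(DD G a t) →* MulAut ↥(EE hS h2) :=
    { toFun := fun d =>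
        { toFun := fun x => ⟨(d : G) * x * (d : G)⁻¹, conj_mem_EE hS h2 (hDa d) x.2⟩
          invFun := fun x => ⟨(d : G)⁻¹ * x * (d : G), by
            have := conj_mem_EE hS h2 (hDa d⁻¹) x.2
            simpa using this⟩
          left_inv := by
            intro x
            apply Subtype.ext
            show (d : G)⁻¹ * ((d : G) * x * (d : G)⁻¹) * (d : G) = x
            group
          right_inv := by
            intro x
            apply Subtype.ext
            show (d : G) * ((d : G)⁻¹ * x * (d : G)) * (d : G)⁻¹ = x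
            group
          map_mul' := by
            intro x y
            apply Subtype.ext
            show (d : G) * ((x : G) * y) * (d : G)⁻¹ = ((d : G) * x * (d : G)⁻¹) * ((d : G) * y * (d : G)⁻¹)
            group }
      map_one' := by
        ext x
        show (1 : G) * x * (1 : G)⁻¹ = x
        group
      map_mul' := by
        intro c d
        ext x
        show ((c : G) * (d : G)) * x * ((c : G) * (d : G))⁻¹ = (c : G) * ((d : G) * x * (d : G)⁻¹) * (c : G)⁻¹
        group }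
  have hρ : ∀ (d : ↥(DD G a t)) (x : ↥(EE hS h2)), ((ρ d x : ↥(EE hS h2)) : G) = d * x * (d : G)⁻¹ := fun _ _ => rfl
  have hti := tinv hS
  let τ : ↥(DD G a t) ≃* ↥(DD G a t) :=
    { toFun := fun d => ⟨t * d * t⁻¹, t_conj_D hS d.2⟩
      invFun := fun d => ⟨t * d * t⁻¹, t_conj_D hS d.2⟩
      left_inv := by
        intro d
        apply Subtype.ext
        show t * (t * d * t⁻¹) * t⁻¹ = d
        calc t * (t * d * t⁻¹) * t⁻¹ = (t * t) * d * (t * t)⁻¹ := by group
          _ = d := by rw [hS.mul_self]; group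
      right_inv := by
        intro d
        apply Subtype.ext
        show t * (t * d * t⁻¹) * t⁻¹ = d
        calc t * (t * d * t⁻¹) * t⁻¹ = (t * t) * d * (t * t)⁻¹ := by group
          _ = d := by rw [hS.mul_self]; group
      map_mul' := by
        intro c d
        apply Subtype.ext
        show t * ((c : G) * d) * t⁻¹ = (t * c * t⁻¹) * (t * d * t⁻¹)
        group }
  have hτ : ∀ d : ↥(DD G a t), ((τ d : ↥(DD G a t)) : G) = t * d * t⁻¹ := fun _ => rfl
  let s' : ↥(EE hS h2) := ⟨s, hs, hss⟩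
  have hT : TSetup ρ τ s' := by
    refine ⟨hS.odd_card, ?_, ?_, ?_, ?_, ?_⟩
    · rintro ⟨e, he, hee⟩
      exact Subtype.ext hee
    · intro d
      exact τ.left_inv d
    · intro hc
      exact hs1 (congrArg Subtype.val hc)
    · intro d
      have h1 := cD_t_eq hS hs hs1 hss hr h d.2
      constructor
      · intro hd
        apply Subtype.ext
        have hd' : t * (d : G) * t⁻¹ = d := congrArg Subtype.val hd
        have h3 : (d : G) * t = t * d := by
          nth_rw 1 [← hd']; group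
        have h4 := h1.1 h3
        show (d : G) * s * (d : G)⁻¹ = s
        rw [h4]; group
      · intro hd
        have hd' : (d : G) * s * (d : G)⁻¹ = s := congrArg Subtype.val hd
        have h3 : (d : G) * s = s * d := by
          nth_rw 2 [← hd']; group
        have h4 := h1.2 h3
        apply Subtype.ext
        show t * (d : G) * t⁻¹ = d
        rw [← h4]; group
    · rintro ⟨y, hy, hyy⟩ hy1
      have hy1' : y ≠ 1 := fun hc => hy1 (Subtype.ext hc)
      obtain ⟨k, hk, hks⟩ := K_exists hS hs1 hss hs hy1' hyy hy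
      refine ⟨⟨k⁻¹, inv_mem hk.1⟩, ?_, ?_⟩
      · apply Subtype.ext
        show t * k⁻¹ * t⁻¹ = k⁻¹⁻¹
        have h3 : t * k * t⁻¹ = k⁻¹ := hk.2
        calc t * k⁻¹ * t⁻¹ = (t * k * t⁻¹)⁻¹ := by group
          _ = k⁻¹⁻¹ := by rw [h3]
      · apply Subtype.ext
        show k⁻¹ * s * k⁻¹⁻¹ = y
        rw [inv_inv, hks]
  have hKC : ∀ k : ↥(DD G a t), τ k = k⁻¹ ↔ (k : G) ∈ C := by
    intro k
    rw [← SetLike.mem_coe, hC]
    constructor
    · intro hk
      exact ⟨k.2, congrArg Subtype.val hk⟩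
    · rintro ⟨-, hk⟩
      exact Subtype.ext hk
  have hCcomm : ∀ x ∈ C, ∀ y ∈ C, x * y = y * x := by
    intro x hx y hy
    letI := hCc.commGroup
    have := mul_comm (⟨x, hx⟩ : C) ⟨y, hy⟩
    exact congrArg Subtype.val this
  obtain ⟨v, hv, hvall⟩ := galois hT
    (by
      intro x y hx hy
      rw [hKC] at hx hy ⊢
      exact ⟨Subtype.ext (hCcomm _ hx _ hy), C.mul_mem hx hy⟩)
    (by
      intro d x hx
      rw [hKC] at hx ⊢
      exact hCn d d.2 x hx)
  refine ⟨v, v.2, ?_, ?_⟩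
  · have hv' : t * (v : G) * t⁻¹ = v := congrArg Subtype.val hv
    nth_rw 2 [← hv']; group
  · intro w hw htw
    obtain ⟨i, hi⟩ := hvall ⟨w, hw⟩ (by
      apply Subtype.ext
      show t * w * t⁻¹ = w
      rw [htw]; group)
    refine ⟨i, ?_⟩
    intro k hk
    have h3 := hi ⟨k, hk.1⟩ (Subtype.ext hk.2)
    exact congrArg Subtype.val h3

end Cfsg.Agent.H24.RankOneGal
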